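import Mathlib
import Cfsg.Agent.Lib.Helper92.MdlDef

/-! Real signed permutation matrices for the twisted group algebra of `Mdl B`
(ladder GRS: Griess' extension `2^{1+2n}.K`). -/

set_option autoImplicit false

namespace Cfsg.Agent.Lib.Helper92.Mdl

open Matrix

set_option linter.unusedSectionVars false

variable {ι : Type} [Fintype ι] [DecidableEq ι] (B : Matrix ι ι (ZMod 2))

noncomputable instance : Fintype (Mdl B) := Fintype.ofEquiv _ toProd.symm

/-- the sign character of `ZMod 2` -/
noncomputable def sg (a : ZMod 2) : ℝ := if a = 0 then 1 else -1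

@[simp] theorem sg_zero : sg 0 = 1 := by simp [sg]

@[simp] theorem sg_one : sg 1 = -1 := by simp [sg]

theorem z2_cases (a : ZMod 2) : a = 0 ∨ a = 1 := by revert a; decide

theorem one_add_one_z2 : (1 : ZMod 2) + 1 = 0 := by decide

theorem sg_add (a b : ZMod 2) : sg (a + b) = sg a * sg b := by
  rcases z2_cases a with rfl | rfl <;> rcases z2_cases b with rfl | rfl <;>
    simp [one_add_one_z2]

theorem sg_mul_self (a : ZMod 2) : sg a * sg a = 1 := by
  rcases z2_cases a with rfl | rfl <;> simp

theorem sg_ne_zero (a : ZMod 2) : sg a ≠ 0 := by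
  rcases z2_cases a with rfl | rfl <;> simp

theorem sg_injective : Function.Injective sg := by
  intro a b h
  rcases z2_cases a with rfl | rfl <;> rcases z2_cases b with rfl | rfl <;> simp at h ⊢ <;>
    norm_num at h

/-- left multiplication by `x` in the twisted group algebra: `e_j ↦ ± e_{x.v + j}` -/
noncomputable def Lm (x : Mdl B) : Matrix (ι → ZMod 2) (ι → ZMod 2) ℝ :=
  Matrix.of fun i j => if i = x.v + j then sg (x.a + bet B x.v j) else 0

/-- right multiplication by `y` in the twisted group algebra: `e_j ↦ ± e_{j + y.v}` -/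
noncomputable def Rm (y : Mdl B) : Matrix (ι → ZMod 2) (ι → ZMod 2) ℝ :=
  Matrix.of fun i j => if i = j + y.v then sg (y.a + bet B j y.v) else 0

theorem Lm_apply (x : Mdl B) (i j : ι → ZMod 2) :
    Lm B x i j = if i = x.v + j then sg (x.a + bet B x.v j) else 0 := rfl

theorem Rm_apply (y : Mdl B) (i j : ι → ZMod 2) :
    Rm B y i j = if i = j + y.v then sg (y.a + bet B j y.v) else 0 := rfl

theorem add_add_cancel_vec (u w : ι → ZMod 2) : u + (u + w) = w := by
  rw [← add_assoc, vec_add_self, zero_add]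

theorem mul_Lm_apply (X : Matrix (ι → ZMod 2) (ι → ZMod 2) ℝ) (x : Mdl B) (i j : ι → ZMod 2) :
    (X * Lm B x) i j = X i (x.v + j) * sg (x.a + bet B x.v j) := by
  rw [Matrix.mul_apply, Finset.sum_eq_single (x.v + j)]
  · simp [Lm_apply]
  · intro k _ hk
    simp [Lm_apply, hk]
  · intro h; exact absurd (Finset.mem_univ _) h

theorem Lm_mul_apply (X : Matrix (ι → ZMod 2) (ι → ZMod 2) ℝ) (x : Mdl B) (i j : ι → ZMod 2) :
    (Lm B x * X) i j = sg (x.a + bet B x.v (x.v + i)) * X (x.v + i) j := by
  rw [Matrix.mul_apply, Finset.sum_eq_single (x.v + i)]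
  · simp [Lm_apply, add_add_cancel_vec]
  · intro k _ hk
    have : i ≠ x.v + k := by
      intro h
      apply hk
      rw [h, add_add_cancel_vec]
    simp [Lm_apply, this]
  · intro h; exact absurd (Finset.mem_univ _) h

theorem mul_Rm_apply (X : Matrix (ι → ZMod 2) (ι → ZMod 2) ℝ) (y : Mdl B) (i j : ι → ZMod 2) :
    (X * Rm B y) i j = X i (j + y.v) * sg (y.a + bet B j y.v) := by
  rw [Matrix.mul_apply, Finset.sum_eq_single (j + y.v)]
  · simp [Rm_apply]
  · intro k _ hk
    simp [Rm_apply, hk]
  · intro h; exact absurd (Finset.mem_univ _) h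

theorem Rm_mul_apply (X : Matrix (ι → ZMod 2) (ι → ZMod 2) ℝ) (y : Mdl B) (i j : ι → ZMod 2) :
    (Rm B y * X) i j = sg (y.a + bet B (i + y.v) y.v) * X (i + y.v) j := by
  rw [Matrix.mul_apply, Finset.sum_eq_single (i + y.v)]
  · have : i + y.v + y.v = i := by rw [add_assoc, vec_add_self, add_zero]
    simp [Rm_apply, this]
  · intro k _ hk
    have : i ≠ k + y.v := by
      intro h
      apply hk
      rw [h, add_assoc, vec_add_self, add_zero]
    simp [Rm_apply, this]
  · intro h; exact absurd (Finset.mem_univ _) h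

end Cfsg.Agent.Lib.Helper92.Mdl
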