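import Mathlib
import Cfsg.Agent.Lib.Helper92.GRS.Defs
import Cfsg.Agent.Lib.Helper92.MdlFin

set_option autoImplicit false

namespace Cfsg.Agent.Lib.Helper92.Mdl

open Matrix

set_option linter.unusedSectionVars false

variable {ι : Type} [Fintype ι] [DecidableEq ι] (B : Matrix ι ι (ZMod 2))

theorem Lm_mul (x y : Mdl B) : Lm B (x * y) = Lm B x * Lm B y := by
  ext i j
  rw [mul_Lm_apply, Lm_apply, Lm_apply]
  simp only [mul_v, mul_a, add_assoc]
  split_ifs with h
  · rw [← sg_add]
    congr 1
    simp only [bet_add_left, bet_add_right]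
    ring
  · simp

theorem Lm_one : Lm B 1 = 1 := by
  ext i j
  rw [Lm_apply, Matrix.one_apply]
  simp

theorem Lm_zc : Lm B (zc B) = -1 := by
  ext i j
  rw [Lm_apply, Matrix.neg_apply, Matrix.one_apply]
  simp only [zc, zero_add, bet_zero_left, add_zero, sg_one]
  split_ifs <;> simp

theorem Lm_transpose (x : Mdl B) : (Lm B x)ᵀ = Lm B x⁻¹ := by
  ext i j
  rw [Matrix.transpose_apply, Lm_apply, Lm_apply]
  simp only [inv_v, inv_a]
  by_cases h : j = x.v + i
  · have h' : i = x.v + j := by rw [h, add_add_cancel_vec]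
    rw [if_pos h, if_pos h']
    congr 1
    rw [h, bet_add_right]
    have := zmod2_add_self (bet B x.v x.v)
    linear_combination -this
  · have h' : ¬ i = x.v + j := by
      intro h2; apply h; rw [h2, add_add_cancel_vec]
    rw [if_neg h, if_neg h']

theorem Lm_injective : Function.Injective (Lm B) := by
  intro x y h
  have h1 := congrFun (congrFun h x.v) 0
  rw [Lm_apply, Lm_apply] at h1
  simp only [add_zero, bet_zero_right, if_true] at h1
  by_cases hv : x.v = y.v
  · rw [if_pos hv] at h1
    exact Mdl.ext hv (sg_injective h1)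
  · rw [if_neg hv] at h1
    exact absurd h1 (sg_ne_zero _)

theorem Rm_mul (x y : Mdl B) : Rm B (x * y) = Rm B y * Rm B x := by
  ext i j
  rw [mul_Rm_apply, Rm_apply, Rm_apply]
  simp only [mul_v, mul_a, add_assoc]
  split_ifs with h
  · rw [← sg_add]
    congr 1
    simp only [bet_add_left, bet_add_right]
    ring
  · simp

theorem Rm_one : Rm B 1 = 1 := by
  ext i j
  rw [Rm_apply, Matrix.one_apply]
  simp

theorem Rm_transpose (y : Mdl B) : (Rm B y)ᵀ = Rm B y⁻¹ := by
  ext i j
  rw [Matrix.transpose_apply, Rm_apply, Rm_apply]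
  simp only [inv_v, inv_a]
  by_cases h : j = i + y.v
  · have h' : i = j + y.v := by rw [h, add_assoc, vec_add_self, add_zero]
    rw [if_pos h, if_pos h']
    congr 1
    rw [h, bet_add_left]
    have := zmod2_add_self (bet B y.v y.v)
    linear_combination -this
  · have h' : ¬ i = j + y.v := by
      intro h2; apply h; rw [h2, add_assoc, vec_add_self, add_zero]
    rw [if_neg h, if_neg h']

theorem Lm_Rm_comm (x y : Mdl B) : Lm B x * Rm B y = Rm B y * Lm B x := by
  ext i j
  rw [mul_Rm_apply, mul_Lm_apply, Lm_apply, Rm_apply]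
  have e : x.v + (j + y.v) = x.v + j + y.v := by rw [add_assoc]
  rw [e]
  split_ifs with h
  · rw [← sg_add, ← sg_add]
    congr 1
    simp only [bet_add_left, bet_add_right]
    ring
  · simp

end Cfsg.Agent.Lib.Helper92.Mdl
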