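import Mathlib

set_option autoImplicit false

namespace Cfsg.Agent.Lib.Helper92.Mdl

theorem assembly_abstract {E : Type} [Group E] [Finite E] {R₀ : Type} [Group R₀] [Finite R₀]
    (p : R₀ →* MulAut E) (j : E →* R₀) (hp : Function.Surjective p) (hj : Function.Injective j)
    (hpj : ∀ c, p (j c) = MulAut.conj c) (hconj : ∀ r c, r * j c * r⁻¹ = j (p r c))
    (hker : ∀ r, p r = 1 → r ∈ j.range) {K : Type*} [Group K] (S : Subgroup (MulAut E))
    (κ : S →* K) (hκ : Function.Surjective κ)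
    (hκker : ∀ s : S, κ s = 1 ↔ ∃ c : E, (s : MulAut E) = MulAut.conj c)
    (hInn : ∀ c : E, MulAut.conj c ∈ S) :
    ∃ (R : Type) (_ : Group R) (_ : Finite R) (Q : Subgroup R) (_ : Q.Normal) (e : R ⧸ Q ≃* K)
      (i : E ≃* ↥Q), ∀ (r : R) (x : E), ∃ s : S, κ s = e (r : R ⧸ Q) ∧
        r * (i x : R) * r⁻¹ = (i ((s : MulAut E) x) : R) := by
  classical
  let π : ↥(S.comap p) →* K := κ.comp (p.subgroupComap S)
  have hπ : Function.Surjective π :=
    hκ.comp (p.subgroupComap_surjective_of_surjective S hp)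
  have hπr : ∀ r : ↥(S.comap p), π r = κ ⟨p r, r.2⟩ := fun r => rfl
  have hmem : ∀ x : E, j x ∈ S.comap p := by
    intro x
    rw [Subgroup.mem_comap, hpj]
    exact hInn x
  have hmemk : ∀ x : E, (⟨j x, hmem x⟩ : ↥(S.comap p)) ∈ π.ker := by
    intro x
    rw [MonoidHom.mem_ker, hπr, hκker]
    exact ⟨x, hpj x⟩
  let i₀ : E →* ↥π.ker :=
    { toFun := fun x => ⟨⟨j x, hmem x⟩, hmemk x⟩
      map_one' := by apply Subtype.ext; apply Subtype.ext; simp
      map_mul' := by intro a b; apply Subtype.ext; apply Subtype.ext; simp }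
  have hi₀ : ∀ x, (((i₀ x : ↥π.ker) : ↥(S.comap p)) : R₀) = j x := fun x => rfl
  have hbij : Function.Bijective i₀ := by
    constructor
    · intro a b hab
      apply hj
      rw [← hi₀, ← hi₀, hab]
    · rintro ⟨r, hr⟩
      rw [MonoidHom.mem_ker, hπr, hκker] at hr
      obtain ⟨c0, hc0⟩ := hr
      have hc0' : p (r : R₀) = MulAut.conj c0 := hc0
      have h1 : p ((r : R₀) * (j c0)⁻¹) = 1 := by
        rw [map_mul, map_inv, hpj, hc0', mul_inv_cancel]
      obtain ⟨c1, hc1⟩ := hker _ h1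
      refine ⟨c1 * c0, ?_⟩
      apply Subtype.ext
      apply Subtype.ext
      rw [hi₀, map_mul, hc1]
      simp
  refine ⟨↥(S.comap p), inferInstance, inferInstance, π.ker, inferInstance,
    QuotientGroup.quotientKerEquivOfSurjective π hπ, MulEquiv.ofBijective i₀ hbij, ?_⟩
  intro r x
  refine ⟨⟨p r, r.2⟩, rfl, ?_⟩
  apply Subtype.ext
  exact hconj (r : R₀) x

end Cfsg.Agent.Lib.Helper92.Mdl
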