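import Mathlib
import Cfsg.Agent.Lib.Helper92.GRS.Defs
import Cfsg.Agent.Lib.Helper92.MdlFin

set_option autoImplicit false

namespace Cfsg.Agent.Lib.Helper92.Mdl

open Matrix

set_option linter.unusedSectionVars false

variable {ι : Type} [Fintype ι] [DecidableEq ι] (B : Matrix ι ι (ZMod 2))

theorem exists_aut_of_linear (g g' : (ι → ZMod 2) →ₗ[ZMod 2] (ι → ZMod 2))
    (h1 : ∀ u, g (g' u) = u) (h2 : ∀ u, g' (g u) = u) (hg : ∀ u, qf B (g u) = qf B u) :
    ∃ φ : MulAut (Mdl B), ∀ x : Mdl B, (φ x).v = g x.v := by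
  let A : Matrix.GeneralLinearGroup ι (ZMod 2) :=
    ⟨LinearMap.toMatrix' g, LinearMap.toMatrix' g',
      by
        rw [← LinearMap.toMatrix'_comp, ← LinearMap.toMatrix'_id]
        congr 1
        exact LinearMap.ext h1,
      by
        rw [← LinearMap.toMatrix'_comp, ← LinearMap.toMatrix'_id]
        congr 1
        exact LinearMap.ext h2⟩
  have hA : ∀ u, (A : Matrix ι ι (ZMod 2)) *ᵥ u = g u := fun u => LinearMap.toMatrix'_mulVec g u
  obtain ⟨φ, hφ⟩ := exists_aut B A (fun u => by rw [hA, hg])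
  exact ⟨φ, fun x => by rw [hφ, hA]⟩

end Cfsg.Agent.Lib.Helper92.Mdl
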