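import Mathlib
import Cfsg.Agent.Lib.Helper92.GRS.Defs
import Cfsg.Agent.Lib.Helper92.MdlFin
import Cfsg.Agent.Lib.Helper92.GRS.AUTK

set_option autoImplicit false

namespace Cfsg.Agent.Lib.Helper92.Mdl

open Matrix

set_option linter.unusedSectionVars false

variable {ι : Type} [Fintype ι] [DecidableEq ι] (B : Matrix ι ι (ZMod 2))

theorem exists_kappa (hB : ∀ u : ι → ZMod 2, (∀ w, bet B u w + bet B w u = 0) → u = 0)
    {K : Type*} [Group K] {U : Type*} [AddCommGroup U] [Module (ZMod 2) U]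
    (c : U ≃ₗ[ZMod 2] (ι → ZMod 2)) (ρ : Representation (ZMod 2) K U)
    (hρ : Function.Injective ρ) (hq : ∀ k u, qf B (c (ρ k u)) = qf B (c u)) :
    ∃ (S : Subgroup (MulAut (Mdl B))) (κ : S →* K), Function.Surjective κ ∧
      (∀ s : S, κ s = 1 ↔ ∃ c₀ : Mdl B, (s : MulAut (Mdl B)) = MulAut.conj c₀) ∧
      (∀ c₀ : Mdl B, MulAut.conj c₀ ∈ S) ∧
      ∀ (s : S) (x : Mdl B), ((s : MulAut (Mdl B)) x).v = c (ρ (κ s) (c.symm x.v)) := by
  classical
  have hρinv : ∀ (k : K) (u : U), ρ k⁻¹ (ρ k u) = u := by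
    intro k u
    rw [← Module.End.mul_apply, ← map_mul, inv_mul_cancel, map_one]; rfl
  have hρinv' : ∀ (k : K) (u : U), ρ k (ρ k⁻¹ u) = u := by
    intro k u
    rw [← Module.End.mul_apply, ← map_mul, mul_inv_cancel, map_one]; rfl
  let S : Subgroup (MulAut (Mdl B)) :=
    { carrier := {φ | ∃ k : K, ∀ x : Mdl B, (φ x).v = c (ρ k (c.symm x.v))}
      one_mem' := ⟨1, fun x => by simp⟩
      mul_mem' := by
        rintro φ ψ ⟨k, hk⟩ ⟨l, hl⟩
        refine ⟨k * l, fun x => ?_⟩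
        rw [MulAut.mul_apply, hk, hl, map_mul]
        simp
      inv_mem' := by
        rintro φ ⟨k, hk⟩
        refine ⟨k⁻¹, fun x => ?_⟩
        have h1 := hk (φ⁻¹ x)
        rw [MulAut.apply_inv_self] at h1
        rw [h1]
        simp [hρinv] }
  have hSmem : ∀ φ : MulAut (Mdl B), φ ∈ S ↔
      ∃ k : K, ∀ x : Mdl B, (φ x).v = c (ρ k (c.symm x.v)) := fun φ => Iff.rfl
  have huniq : ∀ (φ : MulAut (Mdl B)) (k l : K),
      (∀ x : Mdl B, (φ x).v = c (ρ k (c.symm x.v))) →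
      (∀ x : Mdl B, (φ x).v = c (ρ l (c.symm x.v))) → k = l := by
    intro φ k l hk hl
    apply hρ
    ext u
    have h1 := (hk ⟨c u, 0⟩).symm.trans (hl ⟨c u, 0⟩)
    simpa using h1
  let κ₀ : S → K := fun s => Classical.choose s.2
  have hκ₀ : ∀ (s : S) (x : Mdl B), ((s : MulAut (Mdl B)) x).v = c (ρ (κ₀ s) (c.symm x.v)) :=
    fun s => Classical.choose_spec s.2
  let κ : S →* K := MonoidHom.mk' κ₀ (by
    intro s t
    apply huniq ((s : MulAut (Mdl B)) * (t : MulAut (Mdl B))) _ _ (hκ₀ (s * t))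
    intro x
    rw [MulAut.mul_apply, hκ₀ s, hκ₀ t, map_mul]
    simp)
  have hκ : ∀ (s : S) (x : Mdl B), ((s : MulAut (Mdl B)) x).v = c (ρ (κ s) (c.symm x.v)) := hκ₀
  have hconjv : ∀ (c₀ x : Mdl B), (MulAut.conj c₀ x).v = x.v := by
    intro c₀ x
    rw [MulAut.conj_apply]
    simp only [mul_v, inv_v]
    rw [add_comm c₀.v, add_assoc, vec_add_self, add_zero]
  have hconjS : ∀ c₀ : Mdl B, MulAut.conj c₀ ∈ S := by
    intro c₀
    exact ⟨1, fun x => by rw [hconjv]; simp⟩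
  refine ⟨S, κ, ?_, ?_, hconjS, hκ⟩
  · intro k
    obtain ⟨φ, hφ⟩ := exists_aut_of_linear B
      ((c : U →ₗ[ZMod 2] (ι → ZMod 2)) ∘ₗ ρ k ∘ₗ (c.symm : (ι → ZMod 2) →ₗ[ZMod 2] U))
      ((c : U →ₗ[ZMod 2] (ι → ZMod 2)) ∘ₗ ρ k⁻¹ ∘ₗ (c.symm : (ι → ZMod 2) →ₗ[ZMod 2] U))
      (fun u => by simp [hρinv']) (fun u => by simp [hρinv])
      (fun u => by
        have := hq k (c.symm u)
        simpa using this)
    have hφ' : ∀ x : Mdl B, (φ x).v = c (ρ k (c.symm x.v)) := fun x => by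
      rw [hφ]; rfl
    refine ⟨⟨φ, k, hφ'⟩, ?_⟩
    exact huniq φ _ _ (hκ ⟨φ, k, hφ'⟩) hφ'
  · intro s
    constructor
    · intro hs
      have h1 : ∀ x : Mdl B, ((s : MulAut (Mdl B)) x).v = x.v := by
        intro x
        rw [hκ, hs]
        simp
      obtain ⟨c₀, hc₀⟩ := inner_of_v B hB (s : MulAut (Mdl B)) h1
      exact ⟨c₀, hc₀.symm⟩
    · rintro ⟨c₀, hc₀⟩
      apply huniq (s : MulAut (Mdl B)) _ _ (hκ s)
      intro x
      rw [hc₀, hconjv]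
      simp

end Cfsg.Agent.Lib.Helper92.Mdl
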