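import Mathlib
import Cfsg.Agent.Lib.Helper92.GRS.Defs
import Cfsg.Agent.Lib.Helper92.MdlFin

set_option autoImplicit false

namespace Cfsg.Agent.Lib.Helper92.Mdl

open Matrix

set_option linter.unusedSectionVars false

variable {ι : Type} [Fintype ι] [DecidableEq ι] (B : Matrix ι ι (ZMod 2))

theorem commutant_scalar (hB : ∀ u : ι → ZMod 2, (∀ w, bet B u w + bet B w u = 0) → u = 0)
    (X : Matrix (ι → ZMod 2) (ι → ZMod 2) ℝ) (hL : ∀ x, X * Lm B x = Lm B x * X)
    (hR : ∀ y, X * Rm B y = Rm B y * X) :
    ∃ s : ℝ, X = s • (1 : Matrix (ι → ZMod 2) (ι → ZMod 2) ℝ) := by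
  have h1 : ∀ i w : ι → ZMod 2, X i w = sg (bet B w (w + i)) * X (w + i) 0 := by
    intro i w
    have := congrFun (congrFun (hL ⟨w, 0⟩) i) 0
    rw [mul_Lm_apply, Lm_mul_apply] at this
    simpa using this
  have h2 : ∀ i w : ι → ZMod 2, X i w = sg (bet B (i + w) w) * X (i + w) 0 := by
    intro i w
    have := congrFun (congrFun (hR ⟨w, 0⟩) i) 0
    rw [mul_Rm_apply, Rm_mul_apply] at this
    simpa using this
  have h3 : ∀ u : ι → ZMod 2, u ≠ 0 → X u 0 = 0 := by
    intro u hu
    have : ∃ w, bet B u w + bet B w u ≠ 0 := by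
      by_contra hcon
      push Not at hcon
      exact hu (hB u hcon)
    obtain ⟨w, hw⟩ := this
    have hw1 : bet B u w + bet B w u = 1 := (z2_cases _).resolve_left hw
    have e1 := h1 (u + w) w
    have e2 := h2 (u + w) w
    have e3 : w + (u + w) = u := by rw [add_comm u w, add_add_cancel_vec]
    have e4 : u + w + w = u := by rw [add_assoc, vec_add_self, add_zero]
    rw [e3] at e1
    rw [e4] at e2
    have e5 : sg (bet B w u) * X u 0 = sg (bet B u w) * X u 0 := e1.symm.trans e2
    have e6 : sg (bet B u w) = - sg (bet B w u) := by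
      have : bet B u w = 1 + bet B w u := by
        have h := zmod2_add_self (bet B w u)
        linear_combination hw1 - h
      rw [this, sg_add, sg_one]; ring
    rw [e6] at e5
    have e7 : sg (bet B w u) * X u 0 = 0 := by linarith
    exact (mul_eq_zero.mp e7).resolve_left (sg_ne_zero _)
  refine ⟨X 0 0, ?_⟩
  ext i w
  rw [Matrix.smul_apply, Matrix.one_apply, h1 i w]
  by_cases hiw : i = w
  · subst hiw
    rw [vec_add_self]
    simp
  · have : w + i ≠ 0 := by
      intro h
      apply hiw
      have := congrArg (fun t => w + t) h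
      simp only [add_add_cancel_vec, add_zero] at this
      exact this
    rw [h3 _ this, if_neg hiw]
    simp

end Cfsg.Agent.Lib.Helper92.Mdl
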