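import Mathlib
import Cfsg.Agent.Lib.Helper92.GRS.Defs
import Cfsg.Agent.Lib.Helper92.MdlFin

set_option autoImplicit false

namespace Cfsg.Agent.Lib.Helper92.Mdl

open Matrix

set_option linter.unusedSectionVars false

theorem exists_coord {U : Type*} [AddCommGroup U] [Module (ZMod 2) U] [Module.Finite (ZMod 2) U]
    (m : ℕ) (hm : Module.finrank (ZMod 2) U = m) (q : QuadraticForm (ZMod 2) U)
    (hnd : (QuadraticMap.polarBilin q).Nondegenerate) :
    ∃ (B : Matrix (Fin m) (Fin m) (ZMod 2)) (c : U ≃ₗ[ZMod 2] (Fin m → ZMod 2)),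
      (∀ u, qf B (c u) = q u) ∧
      (∀ u : Fin m → ZMod 2, (∀ w, bet B u w + bet B w u = 0) → u = 0) := by
  let b : Module.Basis (Fin m) (ZMod 2) U := Module.finBasisOfFinrankEq (ZMod 2) U hm
  let β := q.toBilin b
  have hβ : ∀ u, β u u = q u := by
    intro u
    have := congrArg (fun Q : QuadraticMap (ZMod 2) U (ZMod 2) => Q u) (q.toQuadraticMap_toBilin b)
    simpa using this
  have hbet : ∀ u w : U, bet (LinearMap.toMatrix₂ b b β) (b.equivFun u) (b.equivFun w) = β u w := by
    intro u w
    have := _root_.dotProduct_toMatrix₂_mulVec b b β (b.equivFun u) (b.equivFun w)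
    simpa [bet] using this
  refine ⟨LinearMap.toMatrix₂ b b β, b.equivFun, fun u => ?_, fun u hu => ?_⟩
  · rw [qf, hbet, hβ]
  · obtain ⟨u, rfl⟩ := b.equivFun.surjective u
    have h1 : ∀ w : U, QuadraticMap.polarBilin q u w = 0 := by
      intro w
      have h2 := hu (b.equivFun w)
      rw [hbet, hbet] at h2
      rw [QuadraticMap.polarBilin_apply_apply, QuadraticMap.polar, ← hβ, ← hβ, ← hβ]
      simp only [map_add, LinearMap.add_apply]
      linear_combination h2
    rw [hnd.1 u h1, map_zero]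

end Cfsg.Agent.Lib.Helper92.Mdl
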