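import Mathlib
import Cfsg.Agent.Lib.Helper92.GRS.Defs
import Cfsg.Agent.Lib.Helper92.MdlFin

set_option autoImplicit false

namespace Cfsg.Agent.Lib.Helper92.Mdl

open Matrix

set_option linter.unusedSectionVars false

variable {ι : Type} [Fintype ι] [DecidableEq ι] (B : Matrix ι ι (ZMod 2))

theorem es2_map_equiv {E E' : Type*} [Group E] [Group E'] {z : E} (h : ES2 E z) (i : E ≃* E') :
    ES2 E' (i z) := by
  apply ES2.of_elementwise
  · intro hz
    apply h.z1
    apply i.injective
    rw [hz, map_one]
  · rw [← map_mul, ← pow_two, h.zz, map_one]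
  · intro a b
    obtain ⟨a, rfl⟩ := i.surjective a
    obtain ⟨b, rfl⟩ := i.surjective b
    rcases h.mul_cases a b with h1 | h1
    · left; rw [← map_mul, ← map_mul, h1]
    · right; rw [← map_mul, ← map_mul, ← map_mul, h1]
  · intro a
    obtain ⟨a, rfl⟩ := i.surjective a
    rw [← map_mul, ← map_mul, h.comm_z a]
  · intro c hc
    obtain ⟨c, rfl⟩ := i.surjective c
    have : c ∈ Subgroup.center E := by
      rw [Subgroup.mem_center_iff]
      intro g
      apply i.injective
      rw [map_mul, map_mul]
      exact hc (i g)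
    rcases h.all c this with h1 | h1
    · left; rw [h1, map_one]
    · right; rw [h1]

theorem mem_center_iff_v (hB : ∀ u : ι → ZMod 2, (∀ w, bet B u w + bet B w u = 0) → u = 0)
    (x : Mdl B) : x ∈ Subgroup.center (Mdl B) ↔ x.v = 0 := by
  constructor
  · intro hx
    rcases (es2 B hB).all x hx with h | h
    · rw [h]; rfl
    · rw [h]; rfl
  · intro hx
    rcases eq_one_or_zc_of_v B hx with h | h
    · rw [h]; exact one_mem _
    · rw [h]; exact (es2 B hB).zc

end Cfsg.Agent.Lib.Helper92.Mdl
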