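import Mathlib
import Cfsg.Agent.Lib.Helper92.GRS.Defs
import Cfsg.Agent.Lib.Helper92.GRS.ALG
import Cfsg.Agent.Lib.Helper92.MdlFin

set_option autoImplicit false

namespace Cfsg.Agent.Lib.Helper92.Mdl

open Matrix

set_option linter.unusedSectionVars false

variable {ι : Type} [Fintype ι] [DecidableEq ι] (B : Matrix ι ι (ZMod 2))

theorem Lm_shift (v : ι → ZMod 2) (a t : ZMod 2) :
    Lm B ⟨v, a + t⟩ = sg t • Lm B ⟨v, a⟩ := by
  ext i j
  rw [Matrix.smul_apply, Lm_apply, Lm_apply]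
  split_ifs with h
  · rw [smul_eq_mul, ← sg_add]
    congr 1
    ring
  · simp

theorem conj_vec (w : ι → ZMod 2) (x : Mdl B) :
    (⟨w, 0⟩ : Mdl B) * x * (⟨w, 0⟩ : Mdl B)⁻¹ = ⟨x.v, x.a + (bet B w x.v + bet B x.v w)⟩ := by
  ext1
  · simp only [mul_v, inv_v]
    rw [add_comm w x.v, add_assoc, vec_add_self, add_zero]
  · simp only [mul_v, mul_a, inv_v, inv_a, bet_add_left]
    have := zmod2_add_self (bet B w w)
    linear_combination this

theorem char_sum (hB : ∀ u : ι → ZMod 2, (∀ w, bet B u w + bet B w u = 0) → u = 0)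
    (v : ι → ZMod 2) (hv : v ≠ 0) : ∑ w : ι → ZMod 2, sg (bet B w v + bet B v w) = 0 := by
  have : ∃ w, bet B v w + bet B w v ≠ 0 := by
    by_contra hcon
    push Not at hcon
    exact hv (hB v hcon)
  obtain ⟨w₀, hw⟩ := this
  have hw1 : bet B v w₀ + bet B w₀ v = 1 := (z2_cases _).resolve_left hw
  have h1 : ∑ w : ι → ZMod 2, sg (bet B w v + bet B v w) =
      ∑ w : ι → ZMod 2, sg (bet B (w + w₀) v + bet B v (w + w₀)) :=
    (Fintype.sum_equiv (Equiv.addRight w₀) _ _ (fun _ => rfl)).symm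
  have h2 : ∀ w : ι → ZMod 2, sg (bet B (w + w₀) v + bet B v (w + w₀)) =
      - sg (bet B w v + bet B v w) := by
    intro w
    have : bet B (w + w₀) v + bet B v (w + w₀) = 1 + (bet B w v + bet B v w) := by
      rw [bet_add_left, bet_add_right, ← hw1]; ring
    rw [this, sg_add, sg_one]; ring
  simp only [h2, Finset.sum_neg_distrib] at h1
  linarith

theorem exists_av_ne_zero (hB : ∀ u : ι → ZMod 2, (∀ w, bet B u w + bet B w u = 0) → u = 0)
    (φ : MulAut (Mdl B)) :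
    ∃ w : ι → ZMod 2, (∑ y : Mdl B, Lm B (φ y) * Lm B ⟨w, 0⟩ * Lm B y⁻¹) ≠ 0 := by
  by_contra hcon
  push Not at hcon
  have key : ∀ (y : Mdl B) (w : ι → ZMod 2),
      Lm B (φ y) * Lm B ⟨w, 0⟩ * Lm B y⁻¹ * Lm B (⟨w, 0⟩ : Mdl B)⁻¹ =
        sg (bet B w y.v + bet B y.v w) • (Lm B (φ y) * Lm B y⁻¹) := by
    intro y w
    rw [mul_assoc, mul_assoc, ← Lm_mul, ← Lm_mul, ← mul_assoc, conj_vec, Lm_shift, inv_v,
      Matrix.mul_smul]
    rfl
  have h0 : ∑ w : ι → ZMod 2, (∑ y : Mdl B, Lm B (φ y) * Lm B ⟨w, 0⟩ * Lm B y⁻¹) *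
      Lm B (⟨w, 0⟩ : Mdl B)⁻¹ = 0 := by
    apply Finset.sum_eq_zero
    intro w _
    rw [hcon w, Matrix.zero_mul]
  simp only [Finset.sum_mul, key] at h0
  rw [Finset.sum_comm] at h0
  have h1 := congrFun (congrFun h0 0) 0
  simp only [Matrix.sum_apply, Matrix.smul_apply, smul_eq_mul, Matrix.zero_apply,
    ← Finset.sum_mul] at h1
  have hpos : 0 < ∑ y : Mdl B, (∑ w : ι → ZMod 2, sg (bet B w y.v + bet B y.v w)) *
      (Lm B (φ y) * Lm B y⁻¹) 0 0 := by
    apply Finset.sum_pos'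
    · intro y _
      by_cases hy : y.v = 0
      · have hφ : φ y = y := by
          rcases eq_one_or_zc_of_v B hy with h | h
          · rw [h, map_one]
          · rw [h, aut_zc B hB]
        rw [hφ, ← Lm_mul, mul_inv_cancel, Lm_one, hy]
        simp
      · rw [char_sum B hB _ hy, zero_mul]
    · refine ⟨1, Finset.mem_univ _, ?_⟩
      rw [map_one, inv_one, ← Lm_mul, mul_one, Lm_one]
      simp
  linarith

end Cfsg.Agent.Lib.Helper92.Mdl
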