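import Mathlib
import Cfsg.Agent.Lib.Helper92.GRS.Defs
import Cfsg.Agent.Lib.Helper92.GRS.ALG
import Cfsg.Agent.Lib.Helper92.GRS.COMM
import Cfsg.Agent.Lib.Helper92.GRS.NZ
import Cfsg.Agent.Lib.Helper92.MdlFin

set_option autoImplicit false

namespace Cfsg.Agent.Lib.Helper92.Mdl

open Matrix

set_option linter.unusedSectionVars false

variable {ι : Type} [Fintype ι] [DecidableEq ι] (B : Matrix ι ι (ZMod 2))

theorem exists_intertwiner (hB : ∀ u : ι → ZMod 2, (∀ w, bet B u w + bet B w u = 0) → u = 0)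
    (φ : MulAut (Mdl B)) :
    ∃ T : Matrix (ι → ZMod 2) (ι → ZMod 2) ℝ, Tᵀ * T = 1 ∧ (∀ y, T * Rm B y = Rm B y * T) ∧
      ∀ x, T * Lm B x = Lm B (φ x) * T := by
  obtain ⟨w, hw⟩ := exists_av_ne_zero B hB φ
  set T₀ : Matrix (ι → ZMod 2) (ι → ZMod 2) ℝ :=
    ∑ y : Mdl B, Lm B (φ y) * Lm B ⟨w, 0⟩ * Lm B y⁻¹ with hT₀
  have hL : ∀ x, T₀ * Lm B x = Lm B (φ x) * T₀ := by
    intro x
    rw [hT₀, Finset.sum_mul, Finset.mul_sum]
    refine Fintype.sum_equiv (Equiv.mulLeft x⁻¹) _ _ (fun y => ?_)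
    simp only [Equiv.coe_mulLeft, ← Lm_mul]
    congr 1
    rw [map_mul, map_inv]
    group
  have hR : ∀ y, T₀ * Rm B y = Rm B y * T₀ := by
    intro y
    rw [hT₀, Finset.sum_mul, Finset.mul_sum]
    refine Finset.sum_congr rfl (fun x _ => ?_)
    rw [mul_assoc, Lm_Rm_comm, mul_assoc, ← mul_assoc (Lm B ⟨w, 0⟩), Lm_Rm_comm, ← mul_assoc,
      ← mul_assoc, Lm_Rm_comm, mul_assoc, mul_assoc, mul_assoc]
  have hLt : ∀ x, Lm B x * T₀ᵀ = T₀ᵀ * Lm B (φ x) := by
    intro x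
    have := congrArg Matrix.transpose (hL x⁻¹)
    rw [Matrix.transpose_mul, Matrix.transpose_mul, Lm_transpose, Lm_transpose, inv_inv, map_inv,
      inv_inv] at this
    exact this
  have hRt : ∀ y, Rm B y * T₀ᵀ = T₀ᵀ * Rm B y := by
    intro y
    have := congrArg Matrix.transpose (hR y⁻¹)
    rw [Matrix.transpose_mul, Matrix.transpose_mul, Rm_transpose, inv_inv] at this
    exact this
  obtain ⟨s, hs⟩ := commutant_scalar B hB (T₀ᵀ * T₀)
    (fun x => by rw [mul_assoc, hL, ← mul_assoc, ← hLt, mul_assoc])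
    (fun y => by rw [mul_assoc, hR, ← mul_assoc, ← hRt, mul_assoc])
  have hsum : ∀ i, s = ∑ k, T₀ k i ^ 2 := by
    intro i
    have := congrFun (congrFun hs i) i
    rw [Matrix.mul_apply, Matrix.smul_apply, Matrix.one_apply_eq, smul_eq_mul, mul_one] at this
    rw [← this]
    refine Finset.sum_congr rfl (fun k _ => ?_)
    rw [Matrix.transpose_apply, pow_two]
  have hs0 : 0 < s := by
    have hnn : 0 ≤ s := by
      rw [hsum 0]
      exact Finset.sum_nonneg (fun k _ => sq_nonneg _)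
    rcases hnn.lt_or_eq with h | h
    · exact h
    · exfalso
      apply hw
      ext k i
      have h1 := hsum i
      rw [← h] at h1
      have h2 := (Finset.sum_eq_zero_iff_of_nonneg (fun k _ => sq_nonneg (T₀ k i))).mp h1.symm k
        (Finset.mem_univ _)
      simpa using h2
  refine ⟨(Real.sqrt s)⁻¹ • T₀, ?_, ?_, ?_⟩
  · rw [Matrix.transpose_smul, Matrix.smul_mul, Matrix.mul_smul, hs, smul_smul, smul_smul,
      ← mul_inv, Real.mul_self_sqrt hs0.le, inv_mul_cancel₀ hs0.ne', one_smul]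
  · intro y
    rw [Matrix.smul_mul, Matrix.mul_smul, hR]
  · intro x
    rw [Matrix.smul_mul, Matrix.mul_smul, hL]

end Cfsg.Agent.Lib.Helper92.Mdl
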