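import Mathlib
import Cfsg.Agent.Lib.Helper92.GRS.Defs
import Cfsg.Agent.Lib.Helper92.GRS.ALG
import Cfsg.Agent.Lib.Helper92.GRS.COMM
import Cfsg.Agent.Lib.Helper92.GRS.INT
import Cfsg.Agent.Lib.Helper92.MdlFin

set_option autoImplicit false

namespace Cfsg.Agent.Lib.Helper92.Mdl

open Matrix

set_option linter.unusedSectionVars false

/-- real matrices indexed by vectors -/
abbrev MatV (ι : Type) : Type := Matrix (ι → ZMod 2) (ι → ZMod 2) ℝ

variable {ι : Type} [Fintype ι] [DecidableEq ι] (B : Matrix ι ι (ZMod 2))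

theorem transpose_intertwine {T X Y : MatV ι} (h1 : Tᵀ * T = 1) (h : T * X = Y * T) :
    Tᵀ * Y = X * Tᵀ := by
  have h1' : T * Tᵀ = 1 := _root_.mul_eq_one_comm.mp h1
  calc Tᵀ * Y = Tᵀ * Y * (T * Tᵀ) := by rw [h1', mul_one]
    _ = Tᵀ * (Y * T) * Tᵀ := by simp only [mul_assoc]
    _ = Tᵀ * (T * X) * Tᵀ := by rw [h]
    _ = (Tᵀ * T) * X * Tᵀ := by simp only [mul_assoc]
    _ = X * Tᵀ := by rw [h1, one_mul]

theorem unit_inv_eq_transpose (T : (MatV ι)ˣ) (h1 : (T : MatV ι)ᵀ * (T : MatV ι) = 1) :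
    ((T⁻¹ : (MatV ι)ˣ) : MatV ι) = (T : MatV ι)ᵀ := by
  have : (T : MatV ι)ᵀ * (T : MatV ι) * ((T⁻¹ : (MatV ι)ˣ) : MatV ι) =
      ((T⁻¹ : (MatV ι)ˣ) : MatV ι) := by rw [h1, one_mul]
  rw [← this, mul_assoc, Units.mul_inv, mul_one]

/-- the group of pairs (orthogonal intertwiner, automorphism) -/
noncomputable def griessCore : Subgroup ((MatV ι)ˣ × MulAut (Mdl B)) where
  carrier := {r | ((r.1 : MatV ι))ᵀ * (r.1 : MatV ι) = 1 ∧
    (∀ y, (r.1 : MatV ι) * Rm B y = Rm B y * (r.1 : MatV ι)) ∧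
    ∀ x, (r.1 : MatV ι) * Lm B x = Lm B (r.2 x) * (r.1 : MatV ι)}
  one_mem' := by
    refine ⟨by simp, fun y => by simp, fun x => by simp⟩
  mul_mem' := by
    rintro ⟨T, φ⟩ ⟨T', φ'⟩ ⟨h1, h2, h3⟩ ⟨h1', h2', h3'⟩
    simp only at h1 h2 h3 h1' h2' h3'
    refine ⟨?_, fun y => ?_, fun x => ?_⟩
    · simp only [Prod.mk_mul_mk, Units.val_mul, Matrix.transpose_mul]
      rw [mul_assoc, ← mul_assoc (T : MatV ι)ᵀ, h1, one_mul, h1']
    · simp only [Prod.mk_mul_mk, Units.val_mul]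
      rw [mul_assoc, h2', ← mul_assoc, h2, mul_assoc]
    · simp only [Prod.mk_mul_mk, Units.val_mul, MulAut.mul_apply]
      rw [mul_assoc, h3', ← mul_assoc, h3, mul_assoc]
  inv_mem' := by
    rintro ⟨T, φ⟩ ⟨h1, h2, h3⟩
    simp only at h1 h2 h3
    have hTi := unit_inv_eq_transpose T h1
    refine ⟨?_, fun y => ?_, fun x => ?_⟩
    · simp only [Prod.inv_mk, hTi, Matrix.transpose_transpose]
      exact _root_.mul_eq_one_comm.mp h1
    · simp only [Prod.inv_mk, hTi]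
      exact transpose_intertwine h1 (h2 y)
    · simp only [Prod.inv_mk, hTi]
      have hx := h3 (φ⁻¹ x)
      rw [MulAut.apply_inv_self] at hx
      exact transpose_intertwine h1 hx

theorem mem_griessCore (r : (MatV ι)ˣ × MulAut (Mdl B)) :
    r ∈ griessCore B ↔ ((r.1 : MatV ι))ᵀ * (r.1 : MatV ι) = 1 ∧
    (∀ y, (r.1 : MatV ι) * Rm B y = Rm B y * (r.1 : MatV ι)) ∧
    ∀ x, (r.1 : MatV ι) * Lm B x = Lm B (r.2 x) * (r.1 : MatV ι) := Iff.rfl

/-- `Lm` as a homomorphism to units -/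
noncomputable def LmU : Mdl B →* (MatV ι)ˣ :=
  MonoidHom.toHomUnits
    { toFun := Lm B
      map_one' := Lm_one B
      map_mul' := Lm_mul B }

theorem LmU_coe (c : Mdl B) : ((LmU B c : (MatV ι)ˣ) : MatV ι) = Lm B c := rfl

theorem LmU_mem (c : Mdl B) : (LmU B c, MulAut.conj c) ∈ griessCore B := by
  rw [mem_griessCore]
  simp only [LmU_coe]
  refine ⟨?_, fun y => Lm_Rm_comm B c y, fun x => ?_⟩
  · rw [Lm_transpose, ← Lm_mul, inv_mul_cancel, Lm_one]
  · rw [← Lm_mul, ← Lm_mul, MulAut.conj_apply]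
    congr 1
    group

theorem exists_griess_core (hB : ∀ u : ι → ZMod 2, (∀ w, bet B u w + bet B w u = 0) → u = 0) :
    ∃ (R₀ : Type) (_ : Group R₀) (_ : Finite R₀) (p : R₀ →* MulAut (Mdl B)) (j : Mdl B →* R₀),
      Function.Surjective p ∧ Function.Injective j ∧ (∀ c, p (j c) = MulAut.conj c) ∧
      (∀ r c, r * j c * r⁻¹ = j (p r c)) ∧ (∀ r, p r = 1 → r ∈ j.range) := by
  let p : ↥(griessCore B) →* MulAut (Mdl B) :=
    (MonoidHom.snd _ _).comp (griessCore B).subtype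
  let j : Mdl B →* ↥(griessCore B) :=
    ((LmU B).prod (MulAut.conj : Mdl B →* MulAut (Mdl B))).codRestrict (griessCore B)
      (fun c => LmU_mem B c)
  have hj1 : ∀ c, (((j c : ↥(griessCore B)) : (MatV ι)ˣ × MulAut (Mdl B)).1 : MatV ι) = Lm B c :=
    fun _ => rfl
  have hj2 : ∀ c, ((j c : ↥(griessCore B)) : (MatV ι)ˣ × MulAut (Mdl B)).2 = MulAut.conj c :=
    fun _ => rfl
  have hker : ∀ r, p r = 1 → r ∈ j.range := by
    rintro ⟨⟨T, φ⟩, h1, h2, h3⟩ hr
    have hφ : φ = 1 := hr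
    subst hφ
    simp only [MulAut.one_apply] at h1 h2 h3
    obtain ⟨s, hs⟩ := commutant_scalar B hB (T : MatV ι) h3 h2
    have hss : s * s = 1 := by
      rw [hs] at h1
      have := congrFun (congrFun h1 0) 0
      simpa using this
    have hzc : MulAut.conj (zc B) = (1 : MulAut (Mdl B)) := by
      ext1 x
      rw [MulAut.conj_apply, MulAut.one_apply, ← (es2 B hB).comm_z x, mul_inv_cancel_right]
    rcases mul_self_eq_one_iff.mp hss with h | h
    · refine ⟨1, ?_⟩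
      apply Subtype.ext
      apply Prod.ext
      · apply Units.ext
        rw [map_one]
        simp [hs, h]
      · rw [map_one]; rfl
    · refine ⟨zc B, ?_⟩
      apply Subtype.ext
      apply Prod.ext
      · apply Units.ext
        rw [hj1, Lm_zc]
        simp [hs, h]
      · rw [hj2, hzc]
  have hfin : Finite ↥(griessCore B) := by
    have hk : Finite ↥p.ker := by
      have : p.ker ≤ j.range := fun r hr => hker r hr
      have hjr : Finite ↥j.range := Finite.of_surjective j.rangeRestrict j.rangeRestrict_surjective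
      exact Finite.of_injective (Subgroup.inclusion this) (Subgroup.inclusion_injective this)
    have hq : Finite (↥(griessCore B) ⧸ p.ker) :=
      Finite.of_injective _ (QuotientGroup.kerLift_injective p)
    exact Finite.of_subgroup_quotient p.ker
  refine ⟨↥(griessCore B), inferInstance, hfin, p, j, ?_, ?_, fun c => rfl, ?_, hker⟩
  · intro φ
    obtain ⟨T, h1, h2, h3⟩ := exists_intertwiner B hB φ
    exact ⟨⟨(⟨T, Tᵀ, _root_.mul_eq_one_comm.mp h1, h1⟩, φ), h1, h2, h3⟩, rfl⟩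
  · intro c c' h
    apply Lm_injective B
    rw [← hj1, ← hj1, h]
  · rintro ⟨⟨T, φ⟩, h1, h2, h3⟩ c
    apply Subtype.ext
    apply Prod.ext
    · apply Units.ext
      simp only at h1 h2 h3
      change (T : MatV ι) * Lm B c * ((T⁻¹ : (MatV ι)ˣ) : MatV ι) = Lm B (φ c)
      rw [h3, mul_assoc, Units.mul_inv, mul_one]
    · change φ * MulAut.conj c * φ⁻¹ = MulAut.conj (φ c)
      ext1 x
      simp [MulAut.conj_apply]

end Cfsg.Agent.Lib.Helper92.Mdl
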